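import Cfsg.Agent.H0.Tr
import Cfsg.Agent.H0.TT
import Cfsg.Agent.H0.ML211.D
set_option maxRecDepth 100000
set_option Elab.async false
set_option linter.unusedSectionVars false
namespace H0.EL211
open H0 BN 
noncomputable def n9 : Net := (Net.cons (nat_lit 8) (nat_lit 0x98) (Net.cons (nat_lit 4) (nat_lit 0x100) (Net.cons (nat_lit 2) (nat_lit 0x302) (Net.cons (nat_lit 1) (nat_lit 0x4) (Net.cons (nat_lit 2) (nat_lit 0x2) (Net.cons (nat_lit 4) (nat_lit 0x804) (Net.cons (nat_lit 8) (nat_lit 0x98) Net.nil)))))))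
noncomputable def n10 : Net := (Net.cons (nat_lit 2) (nat_lit 0x100) (Net.cons (nat_lit 1) (nat_lit 0x54) Net.nil))
noncomputable def n11 : Net := (Net.cons (nat_lit 8) (nat_lit 0x44) (Net.cons (nat_lit 4) (nat_lit 0x40a) (Net.cons (nat_lit 2) (nat_lit 0x100) (Net.cons (nat_lit 1) (nat_lit 0x10) (Net.cons (nat_lit 4) (nat_lit 0x402) (Net.cons (nat_lit 8) (nat_lit 0x40) Net.nil))))))
noncomputable def nl2 : List Net := [n9, n10, n11]
theorem nl2_ok : allL (Net.ok (nat_lit 16)) nl2 = true := by decide +kernel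
noncomputable def nl : List Net := [H0.ML211.n0, H0.ML211.n1, H0.ML211.n2, H0.ML211.n3, H0.ML211.n4, H0.ML211.n5, H0.ML211.n6, H0.ML211.n7, H0.ML211.n8, n9, n10, n11]
theorem nl_ok : allL (Net.ok (nat_lit 16)) nl = true := allL_append H0.ML211.nl_ok nl2_ok
noncomputable def R : Rep := mkRep (nat_lit 4) (nat_lit 16) nl (by decide +kernel) nl_ok
def defs : List (List ℕ) := [[4], [7], [3, 4, 4, 3, 7]]
theorem c0 : pairsB R [2, 1, 0] (((((altW 3).map (sh 9)).map fun r => (r, ([] : List ℕ))).drop 0).take 6) = true := by decide +kernel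
theorem c1 : neB R [9] [] 1 2 1 = true := by decide +kernel
theorem c2 : Model.fixP R [0] ((lets 3).map (sh 9)) = true := by decide +kernel
theorem c3 : Model.growW R [[9], [10], [11]] [0, 2, 1, 0, 0] (Nat.pow 2 1) (ival 1 10) = true := by decide +kernel
theorem c4 : Model.invW R [[9], [10], [11]] 1 10 = true := by decide +kernel
theorem c5 : defsChk R defs 9 = true := by decide +kernel
end H0.EL211
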