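import Cfsg.Agent.H0.EL211.D
set_option maxRecDepth 100000
set_option Elab.async false
set_option linter.unusedSectionVars false
namespace H0.EL211
open H0 BN 
theorem defs_ok : DefsOK R.p defs 9 := defsOK_of_chk c5
universe u
variable {G : Type u} [Group G] [Finite G] (m0 : Model G) (h0 : m0.R = H0.ML211.R)
noncomputable def m : Model G := m0.ext (lg := nat_lit 4) (N := nat_lit 16) (l := H0.ML211.nl) h0 nl nl_ok 9 rfl defs defs_ok (by decide +kernel)
theorem mR : (m m0 h0).R = R := rfl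
variable (hb : m0.pst [2, 1, 0] = ⊥) (hc : Nat.card G = 660)
include h0 hb hc
theorem base : (m m0 h0).pst [2, 1, 0] = ⊥ := hb
omit hb hc in
theorem geq {x : ℕ} (h : x < 9) : (m m0 h0).g x = m0.g x := m0.ext_g h0 _ _ _ _ _ _ _ h
theorem A_iso : Nonempty (alternatingGroup (Fin (3 + 2)) ≃* gen (m m0 h0).g ((lets 3).map (sh 9))) :=
  alt_off _ 9 (all_take_done (all_take_step (all_take_zero _ (((altW 3).map (sh 9)).map fun r => (r, ([] : List ℕ)))) ((m m0 h0).pairs_of (base m0 h0 hb hc) (Model.via _ (mR m0 h0) (fun R => pairsB R [2, 1, 0] (((((altW 3).map (sh 9)).map fun r => (r, ([] : List ℕ))).drop 0).take 6)) c0))) (by decide +kernel)) (by decide) ((m m0 h0).ne_of_neB (Model.via _ (mR m0 h0) (fun R => neB R [9] [] 1 2 1) c1))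
omit hb hc in
theorem A_fix : gen (m m0 h0).g ((lets 3).map (sh 9)) ≤ m0.pst [0] := (m m0 h0).gen_le_of_fixP (Model.via _ (mR m0 h0) (fun R => Model.fixP R [0] ((lets 3).map (sh 9))) c2)
omit hb hc in
theorem o1 : m0.orb (gen (m m0 h0).g ((lets 3).map (sh 9))) 1 = Set.Ico 1 (1 + 10) :=
  (m m0 h0).orb_eq_ico (((m m0 h0)).inOrb_grow [0, 2, 1, 0, 0] (((m m0 h0)).inOrb_self _ 1) (Model.via _ (mR m0 h0) (fun R => Model.growW R [[9], [10], [11]] [0, 2, 1, 0, 0] (Nat.pow 2 1) (ival 1 10)) c3)) (Model.via _ (mR m0 h0) (fun R => Model.invW R [[9], [10], [11]] 1 10) c4) (by decide)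
end H0.EL211
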